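import Mathlib
import Cfsg.Prelude.Def_OddOrderLocal
import Cfsg.Statements.S1350
import Cfsg.Statements.S1352
import Cfsg.Statements.S1361
import Cfsg.Agent.Lib.Helper67.BG.Basics

/-!
Bender–Glauberman: for a standard factorisation `M = K U M_σ`, the set `A(M) \ M_σ` is a TI-subset
of `G` (statement S1362), derived from S1350 (`M_σ` is a Hall subgroup of `M`), S1352
(`U M_σ` is normal in `M`) and S1361 (uniqueness of `M` over `C_G(X)` for `1 ≠ X ≤ U` centralizing
a non-identity element of `M_σ`), which are taken as hypotheses.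
-/

set_option autoImplicit false

namespace Cfsg.Agent.Lib.Helper62.BG

open Cfsg
open scoped Pointwise

variable {G : Type*} [Group G]

/-- `M̂_σ` is invariant under conjugation by elements of `M`. -/
theorem conj_mem_sigmaHat (M : Subgroup G) {m x : G} (hm : m ∈ M) (hx : x ∈ sigmaHat M) :
    m * x * m⁻¹ ∈ sigmaHat M := by
  obtain ⟨hxM, y, hy, hy1, hxy⟩ := hx
  refine ⟨M.mul_mem (M.mul_mem hm hxM) (M.inv_mem hm), m * y * m⁻¹, ?_, ?_, ?_⟩
  · exact (Subgroup.mem_normalizer_iff.mp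
      (Cfsg.Agent.Lib.Helper67.BG.sigmaCore_normalizer M hm) y).mp hy
  · intro h
    apply hy1
    have h2 : y = m⁻¹ * (m * y * m⁻¹) * m := by group
    rw [h2, h]
    group
  · calc m * x * m⁻¹ * (m * y * m⁻¹) = m * (x * y) * m⁻¹ := by group
      _ = m * (y * x) * m⁻¹ := by rw [hxy]
      _ = m * y * m⁻¹ * (m * x * m⁻¹) := by group

/-- An element of `M` all of whose order's prime divisors lie in `σ(M)` lies in `M_σ`,
provided `M_σ` is a Hall subgroup of `M`. -/
theorem mem_sigmaCore_of_primes [Finite G] (M : Subgroup G)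
    (hHall : IsPiHallOf (sigma M) (sigmaCore M) M) {x : G} (hxM : x ∈ M)
    (hx : ∀ p : ℕ, p.Prime → p ∣ orderOf x → p ∈ sigma M) : x ∈ sigmaCore M := by
  have hcop : Nat.gcd (orderOf x) (piCore (sigma M) M).index = 1 := by
    by_contra hne
    obtain ⟨p, hp, hdvd⟩ := Nat.exists_prime_and_dvd hne
    have h1 : p ∣ orderOf x := hdvd.trans (Nat.gcd_dvd_left _ _)
    have h2 : p ∣ (piCore (sigma M) M).index := hdvd.trans (Nat.gcd_dvd_right _ _)
    apply hHall.2.2 p hp (hx p hp h1)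
    rw [Cfsg.Agent.Lib.Helper67.BG.relIndex_sigmaCore]
    exact h2
  have hq : (QuotientGroup.mk' (piCore (sigma M) M) ⟨x, hxM⟩) = 1 := by
    have h1 : orderOf (QuotientGroup.mk' (piCore (sigma M) M) ⟨x, hxM⟩) ∣ orderOf x := by
      have h0 : orderOf (⟨x, hxM⟩ : M) = orderOf x := Subgroup.orderOf_mk x hxM
      rw [← h0]
      exact orderOf_map_dvd _ _
    have h2 : orderOf (QuotientGroup.mk' (piCore (sigma M) M) ⟨x, hxM⟩) ∣
        (piCore (sigma M) M).index := by
      rw [Subgroup.index_eq_card]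
      exact orderOf_dvd_natCard _
    have h3 := Nat.dvd_gcd h1 h2
    rw [hcop, Nat.dvd_one] at h3
    exact orderOf_eq_one_iff.mp h3
  have hmem : (⟨x, hxM⟩ : M) ∈ piCore (sigma M) M := by
    rw [QuotientGroup.mk'_apply] at hq
    exact (QuotientGroup.eq_one_iff _).mp hq
  exact ⟨⟨x, hxM⟩, hmem, rfl⟩

/-- Sylow conjugation into a complement: if `L = U ⊔ N` with `U` normalizing `N`, `U ⊓ N = ⊥`,
and `b ∈ L` has prime order `r` not dividing `|N|`, then some `L`-conjugate of `b` lies in `U`. -/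
theorem exists_conj_mem_of_prime_order [Finite G] {U N : Subgroup G}
    (hUN : U ≤ Subgroup.normalizer (N : Set G)) (hinf : U ⊓ N = ⊥)
    {r : ℕ} (hr : r.Prime) (hrN : ¬ r ∣ Nat.card N) {b : G} (hb : b ∈ U ⊔ N)
    (hbr : orderOf b = r) : ∃ l ∈ U ⊔ N, l * b * l⁻¹ ∈ U := by
  have : Fact r.Prime := ⟨hr⟩
  have hcompl : IsComplIn U N (U ⊔ N) := by
    refine ⟨le_sup_left, le_sup_right, hinf, ?_⟩
    intro m hm
    have hset : ((U ⊔ N : Subgroup G) : Set G) = (U : Set G) * (N : Set G) :=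
      Subgroup.coe_mul_of_left_le_normalizer_right U N hUN
    have hm' : m ∈ (U : Set G) * (N : Set G) := by
      rw [← hset]; exact hm
    obtain ⟨a, ha, c, hc, rfl⟩ := Set.mem_mul.mp hm'
    exact ⟨a, ha, c, hc, rfl⟩
  have hcard : Nat.card (U ⊔ N : Subgroup G) = Nat.card U * Nat.card N :=
    Cfsg.Agent.Lib.Helper23.card_of_isComplIn hcompl
  have hfac : (Nat.card (U ⊔ N : Subgroup G)).factorization r = (Nat.card U).factorization r := by
    rw [hcard, Nat.factorization_mul Nat.card_pos.ne' Nat.card_pos.ne']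
    simp [Nat.factorization_eq_zero_of_not_dvd hrN]
  -- the element `b` inside `L`
  set L : Subgroup G := U ⊔ N with hL
  let b' : L := ⟨b, hb⟩
  have hb'r : orderOf b' = r := by
    rw [Subgroup.orderOf_mk]; exact hbr
  have hzp : IsPGroup r (Subgroup.zpowers b') := by
    refine IsPGroup.of_card (n := 1) ?_
    rw [Nat.card_zpowers, hb'r, pow_one]
  obtain ⟨P, hP⟩ := hzp.exists_le_sylow
  -- a Sylow `r`-subgroup of `U`, viewed inside `L`
  let f : U →* L := Subgroup.inclusion (le_sup_left : U ≤ L)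
  have hf : Function.Injective f := Subgroup.inclusion_injective _
  let Q₀ : Sylow r U := default
  have hQcard : Nat.card ((Q₀ : Subgroup U).map f) = r ^ (Nat.card L).factorization r := by
    rw [Subgroup.card_map_of_injective hf, hfac]
    exact Sylow.card_eq_multiplicity Q₀
  let Q : Sylow r L := Sylow.ofCard ((Q₀ : Subgroup U).map f) hQcard
  obtain ⟨g, hg⟩ := MulAction.exists_smul_eq L P Q
  have hbP : b' ∈ (P : Subgroup L) := hP (Subgroup.mem_zpowers b')
  have hmem : g * b' * g⁻¹ ∈ (Q : Subgroup L) := by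
    rw [← hg, Sylow.coe_subgroup_smul]
    have := Subgroup.smul_mem_pointwise_smul b' (MulAut.conj g) (P : Subgroup L) hbP
    simpa [MulAut.smul_def] using this
  have hmem' : g * b' * g⁻¹ ∈ (Q₀ : Subgroup U).map f := hmem
  obtain ⟨u, -, hu⟩ := hmem'
  refine ⟨(g : G), g.2, ?_⟩
  have h1 : ((f u : L) : G) = (g : G) * b * (g : G)⁻¹ := by
    rw [hu]; rfl
  rw [← h1]
  exact u.2

/-- A nontrivial maximal subgroup of a minimal simple group is self-normalizing. -/
theorem normalizer_coatom_eq_self (hG : IsMinSimpleOddOrder G) {M : Subgroup G} (hM : IsCoatom M)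
    (hM1 : M ≠ ⊥) : Subgroup.normalizer (M : Set G) = M := by
  by_contra hne
  have htop : Subgroup.normalizer (M : Set G) = ⊤ :=
    hM.2 _ (lt_of_le_of_ne Subgroup.le_normalizer (Ne.symm hne))
  have hnormal : M.Normal := Subgroup.normalizer_eq_top_iff.mp htop
  have hsimple : IsSimpleGroup G := hG.2.1
  rcases hnormal.eq_bot_or_eq_top with h | h
  · exact hM1 h
  · exact hM.1 h

/-- Key step: for `x ∈ A(M)` and a prime `r ∉ σ(M)` dividing the order of `x`, the element
`b = x ^ (orderOf x / r)` has `C_G(b) ≤ M` and `M` is the only maximal subgroup containing `C_G(b)`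
(phrased elementwise). -/
theorem key_step [Finite G] (hG : IsMinSimpleOddOrder G)
    (h1361 : type_of% (@Cfsg.CfsgFrozen.S1361 G _ _ hG))
    (M : Subgroup G) (hM : IsCoatom M) (K U : Subgroup G) (hKU : IsSigmaDecomposition M K U)
    {x : G} (hx : x ∈ sigmaA M U) {r : ℕ} (hr : r.Prime) (hrx : r ∣ orderOf x)
    (hrσ : r ∉ sigma M) :
    (∀ c : G, c * x ^ (orderOf x / r) = x ^ (orderOf x / r) * c → c ∈ M) ∧
    ∀ L : Subgroup G, IsCoatom L →
      (∀ c : G, c * x ^ (orderOf x / r) = x ^ (orderOf x / r) * c → c ∈ L) → L = M := by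
  obtain ⟨⟨hxM, y, hy, hy1, hxy⟩, hxL⟩ := hx
  set b := x ^ (orderOf x / r) with hb
  have hbr : orderOf b = r := orderOf_pow_orderOf_div (orderOf_pos x).ne' hrx
  have hUM : U ≤ M := hKU.compl.1
  have hNM : sigmaCore M ≤ M := Cfsg.Agent.Lib.Helper67.BG.sigmaCore_le M
  have hUN : U ≤ Subgroup.normalizer (sigmaCore M : Set G) :=
    hUM.trans (Cfsg.Agent.Lib.Helper67.BG.sigmaCore_normalizer M)
  have hinf : U ⊓ sigmaCore M = ⊥ := by
    have h := hKU.compl.2.2.1
    refine le_bot_iff.mp ?_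
    rw [← h]
    exact inf_le_inf_left U le_sup_right
  have hrN : ¬ r ∣ Nat.card (sigmaCore M) :=
    fun h => hrσ (Cfsg.Agent.Lib.Helper67.BG.sigmaCore_isPi M r hr h)
  have hbL : b ∈ U ⊔ sigmaCore M := Subgroup.pow_mem _ hxL _
  obtain ⟨l, hlL, hlU⟩ := exists_conj_mem_of_prime_order hUN hinf hr hrN hbL hbr
  have hlM : l ∈ M := (sup_le hUM hNM) hlL
  set u := l * b * l⁻¹ with hu
  have hby : b * y = y * b := by
    have hc : Commute x y := hxy
    exact (hc.pow_left _).eq
  have huy : u * (l * y * l⁻¹) = (l * y * l⁻¹) * u := by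
    calc u * (l * y * l⁻¹) = l * (b * y) * l⁻¹ := by rw [hu]; group
      _ = l * (y * b) * l⁻¹ := by rw [hby]
      _ = (l * y * l⁻¹) * u := by rw [hu]; group
  have hb2 : b = l⁻¹ * u * l := by rw [hu]; group
  have hu1 : u ≠ 1 := by
    intro h
    have hb1 : b = 1 := by
      rw [hb2, h]; group
    rw [hb1, orderOf_one] at hbr
    exact hr.one_lt.ne hbr
  have hX : Subgroup.zpowers u ≤ U := by
    rw [Subgroup.zpowers_le]; exact hlU
  have hX1 : Subgroup.zpowers u ≠ ⊥ := by
    intro h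
    apply hu1
    have hmem := Subgroup.mem_zpowers u
    rw [h, Subgroup.mem_bot] at hmem
    exact hmem
  have hy'mem : l * y * l⁻¹ ∈ sigmaCore M :=
    (Subgroup.mem_normalizer_iff.mp
      (Cfsg.Agent.Lib.Helper67.BG.sigmaCore_normalizer M hlM) y).mp hy
  have hy'1 : l * y * l⁻¹ ≠ 1 := by
    intro h
    apply hy1
    have h2 : y = l⁻¹ * (l * y * l⁻¹) * l := by group
    rw [h2, h]; group
  have hcent : ∀ d : G, d * u = u * d →
      d ∈ Subgroup.centralizer ((Subgroup.zpowers u : Subgroup G) : Set G) := by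
    intro d hd
    rw [Subgroup.mem_centralizer_iff]
    intro z hz
    obtain ⟨k, rfl⟩ := Subgroup.mem_zpowers_iff.mp hz
    have hc : Commute u d := hd.symm
    exact (hc.zpow_left k).eq
  have hXc : sigmaCore M ⊓ Subgroup.centralizer ((Subgroup.zpowers u : Subgroup G) : Set G) ≠ ⊥ := by
    intro h
    apply hy'1
    have hmem : l * y * l⁻¹ ∈
        sigmaCore M ⊓ Subgroup.centralizer ((Subgroup.zpowers u : Subgroup G) : Set G) :=
      ⟨hy'mem, hcent _ huy.symm⟩
    rw [h, Subgroup.mem_bot] at hmem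
    exact hmem
  obtain ⟨hle, huniq⟩ := h1361 M hM K U hKU (Subgroup.zpowers u) hX hX1 hXc
  constructor
  · intro c hc
    have h1 : (l * c * l⁻¹) * u = u * (l * c * l⁻¹) := by
      calc (l * c * l⁻¹) * u = l * (c * b) * l⁻¹ := by rw [hu]; group
        _ = l * (b * c) * l⁻¹ := by rw [hc]
        _ = u * (l * c * l⁻¹) := by rw [hu]; group
    have h2 : l * c * l⁻¹ ∈ M := hle (hcent _ h1)
    have h3 : c = l⁻¹ * (l * c * l⁻¹) * l := by group
    rw [h3]
    exact M.mul_mem (M.mul_mem (M.inv_mem hlM) h2) hlM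
  · intro L hL hLc
    have hcoat : IsCoatom (L.map (MulAut.conj l).toMonoidHom) :=
      ((MulAut.conj l).mapSubgroup.isCoatom_iff L).mpr hL
    have hle' : Subgroup.centralizer ((Subgroup.zpowers u : Subgroup G) : Set G) ≤
        L.map (MulAut.conj l).toMonoidHom := by
      intro d hd
      have hdu : d * u = u * d :=
        (Subgroup.mem_centralizer_iff.mp hd u (Subgroup.mem_zpowers u)).symm
      have h1 : (l⁻¹ * d * l) * b = b * (l⁻¹ * d * l) := by
        calc (l⁻¹ * d * l) * b = l⁻¹ * (d * u) * l := by rw [hb2]; group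
          _ = l⁻¹ * (u * d) * l := by rw [hdu]
          _ = b * (l⁻¹ * d * l) := by rw [hb2]; group
      refine ⟨l⁻¹ * d * l, hLc _ h1, ?_⟩
      simp only [MulEquiv.coe_toMonoidHom, MulAut.conj_apply]
      group
    have hLM := huniq _ hcoat hle'
    have hLleM : L ≤ M := by
      intro z hz
      have hz' : l * z * l⁻¹ ∈ L.map (MulAut.conj l).toMonoidHom :=
        ⟨z, hz, by simp only [MulEquiv.coe_toMonoidHom, MulAut.conj_apply]⟩
      rw [hLM] at hz'
      have h3 : z = l⁻¹ * (l * z * l⁻¹) * l := by group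
      rw [h3]
      exact M.mul_mem (M.mul_mem (M.inv_mem hlM) hz') hlM
    exact ((hL.le_iff_eq hM.1).mp hLleM).symm

/-- **S1362 core**: `A(M) \ M_σ` is a TI-subset of `G`, given S1350, S1352 and S1361. -/
theorem s1362_core [Finite G] (hG : IsMinSimpleOddOrder G)
    (h1350 : type_of% (@Cfsg.CfsgFrozen.S1350 G _ _ hG))
    (h1352 : type_of% (@Cfsg.CfsgFrozen.S1352 G _ _ hG))
    (h1361 : type_of% (@Cfsg.CfsgFrozen.S1361 G _ _ hG))
    (M : Subgroup G) (hM : IsCoatom M) (K U : Subgroup G) (hKU : IsSigmaDecomposition M K U) :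
    IsTISubset (sigmaA M U \ (sigmaCore M : Set G)) := by
  obtain ⟨hHall, -, -⟩ := h1350 M hM
  have hnormL : M ≤ Subgroup.normalizer ((U ⊔ sigmaCore M : Subgroup G) : Set G) :=
    (h1352 M hM K hKU.cyclic hKU.hall).2 U hKU
  -- the set is invariant under conjugation by `M`
  have hinv : ∀ m ∈ M, ∀ x ∈ sigmaA M U \ (sigmaCore M : Set G),
      m * x * m⁻¹ ∈ sigmaA M U \ (sigmaCore M : Set G) := by
    intro m hm x hx
    obtain ⟨⟨hxh, hxL⟩, hxN⟩ := hx
    refine ⟨⟨conj_mem_sigmaHat M hm hxh, ?_⟩, ?_⟩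
    · exact (Subgroup.mem_normalizer_iff.mp (hnormL hm) x).mp hxL
    · intro h
      apply hxN
      exact (Subgroup.mem_normalizer_iff.mp
        (Cfsg.Agent.Lib.Helper67.BG.sigmaCore_normalizer M hm) x).mpr h
  have hMle : M ≤ Subgroup.normalizer (sigmaA M U \ (sigmaCore M : Set G)) := by
    intro m hm
    rw [Subgroup.mem_set_normalizer_iff]
    intro x
    constructor
    · exact hinv m hm x
    · intro h
      have h2 := hinv m⁻¹ (M.inv_mem hm) _ h
      have h3 : m⁻¹ * (m * x * m⁻¹) * m⁻¹⁻¹ = x := by group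
      rwa [h3] at h2
  -- main step
  intro g hg x hx hgx
  exfalso
  apply hg
  apply hMle
  obtain ⟨hxA, hxN⟩ := hx
  have hxM : x ∈ M := hxA.1.1
  have hM1 : M ≠ ⊥ := by
    intro h
    apply hxN
    rw [h, Subgroup.mem_bot] at hxM
    rw [hxM]
    exact Subgroup.one_mem _
  -- a prime `r ∉ σ(M)` dividing the order of `x`
  obtain ⟨r, hr, hrx, hrσ⟩ : ∃ r : ℕ, r.Prime ∧ r ∣ orderOf x ∧ r ∉ sigma M := by
    by_contra hcon
    push Not at hcon
    exact hxN (mem_sigmaCore_of_primes M hHall hxM hcon)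
  have hord : orderOf (g * x * g⁻¹) = orderOf x := by
    have := (MulAut.conj g).orderOf_eq x
    simpa [MulAut.conj_apply] using this
  obtain ⟨-, huniq⟩ := key_step hG h1361 M hM K U hKU hxA hr hrx hrσ
  obtain ⟨hle2, -⟩ := key_step hG h1361 M hM K U hKU hgx.1 hr (hord ▸ hrx) hrσ
  rw [hord, conj_pow] at hle2
  have hcoat : IsCoatom (M.map (MulAut.conj g⁻¹).toMonoidHom) :=
    ((MulAut.conj g⁻¹).mapSubgroup.isCoatom_iff M).mpr hM
  have hmap : M.map (MulAut.conj g⁻¹).toMonoidHom = M := by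
    apply huniq _ hcoat
    intro c hc
    have h1 : (g * c * g⁻¹) * (g * x ^ (orderOf x / r) * g⁻¹) =
        (g * x ^ (orderOf x / r) * g⁻¹) * (g * c * g⁻¹) := by
      calc (g * c * g⁻¹) * (g * x ^ (orderOf x / r) * g⁻¹)
          = g * (c * x ^ (orderOf x / r)) * g⁻¹ := by group
        _ = g * (x ^ (orderOf x / r) * c) * g⁻¹ := by rw [hc]
        _ = (g * x ^ (orderOf x / r) * g⁻¹) * (g * c * g⁻¹) := by group
    refine ⟨g * c * g⁻¹, hle2 _ h1, ?_⟩
    simp only [MulEquiv.coe_toMonoidHom, MulAut.conj_apply]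
    group
  have hginv : g⁻¹ ∈ Subgroup.normalizer (M : Set G) :=
    Subgroup.mem_normalizer_iff_map_conj_eq.mpr hmap
  rw [normalizer_coatom_eq_self hG hM hM1] at hginv
  have := M.inv_mem hginv
  rwa [inv_inv] at this

end Cfsg.Agent.Lib.Helper62.BG
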