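import Mathlib
import Cfsg.Agent.Lib.Helper98.BG.SigmaDefs

/-!
# Package E3 of the sigma-partition project (helper98's `SIGMA13`)

Pure group theory: `X, Y ≤ C`, `X` an `r`-group, `Y` a `t`-group, and neither `r` nor `t`
divides `|C'|`.  Then some `C`-conjugate of `Y` centralizes `X`.
-/

set_option autoImplicit false

namespace Cfsg.Agent.Lib.Helper62.BG

open Cfsg

universe u

/-- A `p`-subgroup meets a subgroup of order prime to `p` trivially. -/
theorem e3_inf_eq_bot {G : Type u} [Group G] [Finite G] (S K : Subgroup G) (r : ℕ)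
    (hr : r.Prime) (hS : IsPGroup r S) (hrK : ¬ r ∣ Nat.card ↥K) : S ⊓ K = ⊥ := by
  have : Fact r.Prime := ⟨hr⟩
  have h1 : IsPGroup r ↥(S ⊓ K) := hS.to_le inf_le_left
  obtain ⟨n, hn⟩ := IsPGroup.iff_card.mp h1
  have h2 : Nat.card ↥(S ⊓ K) ∣ Nat.card ↥K := Subgroup.card_dvd_of_le inf_le_right
  rcases Nat.eq_zero_or_pos n with h0 | hpos
  · rw [h0, pow_zero] at hn
    exact Subgroup.card_eq_one.mp hn
  · exfalso
    apply hrK
    exact dvd_trans (dvd_trans (dvd_pow_self r hpos.ne') (hn ▸ dvd_rfl)) h2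

/-- The version of package E3 for the whole group. -/
theorem e3_top {G : Type u} [Group G] [Finite G] (X Y : Subgroup G) (r t : ℕ)
    (hr : r.Prime) (ht : t.Prime) (hX : IsPGroup r X) (hY : IsPGroup t Y)
    (hrK : ¬ r ∣ Nat.card ↥(commutator G)) (htK : ¬ t ∣ Nat.card ↥(commutator G)) :
    ∃ c : G, Y.map (MulAut.conj c).toMonoidHom ≤ Subgroup.centralizer (X : Set G) := by
  classical
  have : Fact r.Prime := ⟨hr⟩
  have : Fact t.Prime := ⟨ht⟩
  obtain ⟨K, hKdef⟩ : ∃ K : Subgroup G, K = commutator G := ⟨_, rfl⟩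
  rw [← hKdef] at hrK htK
  have hKn : K.Normal := by rw [hKdef]; infer_instance
  have hcomm : ∀ a b : G, a * b * a⁻¹ * b⁻¹ ∈ K := by
    intro a b
    rw [hKdef, commutator_def]
    exact Subgroup.commutator_mem_commutator (Subgroup.mem_top a) (Subgroup.mem_top b)
  -- `H1 = X ⊔ K` is normal
  obtain ⟨H1, hH1def⟩ : ∃ H1 : Subgroup G, H1 = X ⊔ K := ⟨_, rfl⟩
  have hXH1 : X ≤ H1 := hH1def ▸ le_sup_left
  have hKH1 : K ≤ H1 := hH1def ▸ le_sup_right
  have hH1n : H1.Normal := by
    refine ⟨fun h hh g => ?_⟩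
    have : g * h * g⁻¹ = (g * h * g⁻¹ * h⁻¹) * h := by group
    rw [this]
    exact H1.mul_mem (hKH1 (hcomm g h)) hh
  -- `X` is a Sylow `r`-subgroup of `H1`
  obtain ⟨S, hS⟩ := IsPGroup.exists_le_sylow (hX.comap_of_injective H1.subtype
    (Subgroup.subtype_injective H1) : IsPGroup r ↥(X.subgroupOf H1))
  have hSX : (S : Subgroup ↥H1).map H1.subtype = X := by
    apply le_antisymm
    · rintro _ ⟨s, hs, rfl⟩
      have hs1 : (s : G) ∈ X ⊔ K := hH1def ▸ s.2
      obtain ⟨x, hx, k, hk, hxk⟩ := Subgroup.mem_sup_of_normal_right.mp hs1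
      have hSr : IsPGroup r ↥((S : Subgroup ↥H1).map H1.subtype) := S.2.map _
      have hbot := e3_inf_eq_bot ((S : Subgroup ↥H1).map H1.subtype) K r hr hSr hrK
      have hxS : x ∈ (S : Subgroup ↥H1).map H1.subtype :=
        ⟨⟨x, hXH1 hx⟩, hS (Subgroup.mem_subgroupOf.mpr hx), rfl⟩
      have hkS : k ∈ (S : Subgroup ↥H1).map H1.subtype := by
        have : k = x⁻¹ * (s : G) := by rw [← hxk]; group
        rw [this]
        exact Subgroup.mul_mem _ (Subgroup.inv_mem _ hxS) ⟨s, hs, rfl⟩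
      have hk1 : k = 1 := by
        have : k ∈ (S : Subgroup ↥H1).map H1.subtype ⊓ K := ⟨hkS, hk⟩
        rw [hbot] at this
        exact Subgroup.mem_bot.mp this
      have : (s : G) = x := by rw [← hxk, hk1, mul_one]
      simp only [Subgroup.coe_subtype]
      rw [this]; exact hx
    · intro x hx
      exact ⟨⟨x, hXH1 hx⟩, hS (Subgroup.mem_subgroupOf.mpr hx), rfl⟩
  have hfrat := Sylow.normalizer_sup_eq_top S
  rw [hSX, hH1def] at hfrat
  -- the normalizer of `X` centralizes `X`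
  have hNC : Subgroup.normalizer (X : Set G) ≤ Subgroup.centralizer (X : Set G) := by
    intro n hn
    rw [Subgroup.mem_centralizer_iff]
    intro x hx
    have h1 : n * x * n⁻¹ * x⁻¹ ∈ X ⊓ K := by
      refine ⟨?_, hcomm n x⟩
      exact X.mul_mem ((Subgroup.mem_normalizer_iff.mp hn x).mp hx) (X.inv_mem hx)
    rw [e3_inf_eq_bot X K r hr hX hrK] at h1
    have h2 := Subgroup.mem_bot.mp h1
    have : n * x = (n * x * n⁻¹ * x⁻¹) * (x * n) := by group
    rw [this, h2, one_mul]
  obtain ⟨D, hDdef⟩ : ∃ D : Subgroup G, D = Subgroup.centralizer (X : Set G) := ⟨_, rfl⟩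
  have hDK : D ⊔ K = ⊤ := by
    apply top_le_iff.mp
    rw [← hfrat]
    apply sup_le
    · exact le_trans (hDdef ▸ hNC) le_sup_left
    · apply sup_le
      · refine le_trans ?_ le_sup_left
        rw [hDdef]
        exact le_trans Subgroup.le_normalizer hNC
      · exact le_sup_right
  -- the index of `D` divides `|K|`
  have hDidx : D.index ∣ Nat.card ↥K := by
    have h1 : K.relIndex D = K.index := by
      have := Subgroup.relIndex_sup_right D K
      rw [hDK, Subgroup.relIndex_top_right] at this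
      exact this.symm
    have h2 : K.relIndex D * Nat.card ↥(K.subgroupOf D) = Nat.card ↥D := by
      rw [Subgroup.relIndex, mul_comm]
      exact Subgroup.card_mul_index (K.subgroupOf D)
    have h3 : Nat.card ↥D * D.index = Nat.card G := Subgroup.card_mul_index D
    have h4 : Nat.card ↥K * K.index = Nat.card G := Subgroup.card_mul_index K
    have hpos : 0 < K.index := Nat.pos_of_ne_zero Subgroup.index_ne_zero_of_finite
    refine ⟨Nat.card ↥(K.subgroupOf D), ?_⟩
    apply Nat.eq_of_mul_eq_mul_left hpos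
    rw [← h1] at h4 ⊢
    calc K.relIndex D * Nat.card ↥K = Nat.card G := by rw [mul_comm]; exact h4
      _ = Nat.card ↥D * D.index := h3.symm
      _ = K.relIndex D * (D.index * Nat.card ↥(K.subgroupOf D)) := by rw [← h2]; ring
  -- a Sylow `t`-subgroup of `D` is a Sylow `t`-subgroup of `G`
  obtain ⟨T⟩ : Nonempty (Sylow t ↥D) := inferInstance
  have hTidx : ¬ t ∣ ((T : Subgroup ↥D).map D.subtype).index := by
    rw [Subgroup.index_map_subtype]
    intro hdvd
    rcases (Nat.Prime.dvd_mul ht).mp hdvd with h | h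
    · exact T.not_dvd_index h
    · exact htK (dvd_trans h hDidx)
  have hTp : IsPGroup t ↥((T : Subgroup ↥D).map D.subtype) := T.2.map _
  obtain ⟨Q, hQ⟩ := IsPGroup.exists_le_sylow hY
  obtain ⟨g, hg⟩ := MulAction.exists_smul_eq G Q (hTp.toSylow hTidx)
  refine ⟨g, ?_⟩
  rintro _ ⟨y, hy, rfl⟩
  have h1 : (MulAut.conj g).toMonoidHom y ∈ ((g • Q : Sylow t G) : Subgroup G) := by
    rw [Sylow.smul_def, Sylow.pointwise_smul_def, Subgroup.pointwise_smul_def]
    exact ⟨y, hQ hy, rfl⟩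
  rw [hg] at h1
  obtain ⟨d, _, hd⟩ := h1
  rw [← hDdef, ← hd]
  exact d.2

/-- Package E3 (pure group theory).  `X, Y ≤ C`, `X` an `r`-group, `Y` a `t`-group, and neither
`r` nor `t` divides `|C'|`.  Then some `C`-conjugate of `Y` centralizes `X`. -/
theorem lemE3 : Cfsg.Agent.Lib.Helper98.BG13.LemE3.{u} := by
  intro G _ _ C X Y r t hr ht hXC hYC hX hY hrC htC
  have hcard : Nat.card ↥(commutator ↥C) = Nat.card ↥⁅C, C⁆ := by
    rw [← Subgroup.map_subtype_commutator C]
    exact Nat.card_congr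
      (Subgroup.equivMapOfInjective _ _ (Subgroup.subtype_injective C)).toEquiv
  have hX' : IsPGroup r ↥(X.subgroupOf C) :=
    hX.comap_of_injective C.subtype (Subgroup.subtype_injective C)
  have hY' : IsPGroup t ↥(Y.subgroupOf C) :=
    hY.comap_of_injective C.subtype (Subgroup.subtype_injective C)
  obtain ⟨c, hc⟩ := e3_top (X.subgroupOf C) (Y.subgroupOf C) r t hr ht hX' hY'
    (hcard ▸ hrC) (hcard ▸ htC)
  refine ⟨(c : G), c.2, ?_⟩
  rintro _ ⟨y, hy, rfl⟩
  rw [Subgroup.mem_centralizer_iff]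
  intro x hx
  have h1 : (MulAut.conj c).toMonoidHom ⟨y, hYC hy⟩ ∈
      Subgroup.centralizer ((X.subgroupOf C : Subgroup ↥C) : Set ↥C) :=
    hc ⟨⟨y, hYC hy⟩, Subgroup.mem_subgroupOf.mpr hy, rfl⟩
  have h2 := Subgroup.mem_centralizer_iff.mp h1 ⟨x, hXC hx⟩ (Subgroup.mem_subgroupOf.mpr hx)
  have h3 := congrArg (Subtype.val) h2
  simpa using h3

end Cfsg.Agent.Lib.Helper62.BG
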